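import Cfsg.Agent.BNPair.Coxeter
import Mathlib.Analysis.Real.Sqrt
import Mathlib.LinearAlgebra.Dimension.Finite
import Mathlib.LinearAlgebra.FiniteDimensional.Basic

/-!
# The Hecke algebra of the Weyl group of a BN-pair, and its centre

For positive parameters constant on the classes of the generators, the Casimir map of the Hecke
algebra has the centre as image.
-/

set_option autoImplicit false
set_option linter.unusedSectionVars false

namespace CfsgLib.HeckeCenter

open CfsgLib.BNPair

variable {G : Type*} [Group G] (P : Cfsg.BNPair G)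

theorem len_mul_σ (s : P.S) (w : W P) :
    len P (w * σ P s) = len P w + 1 ∨ len P (w * σ P s) + 1 = len P w := by
  have h : len P (w * σ P s) = len P (σ P s * w⁻¹) := by
    rw [← len_inv, mul_inv_rev, σ_inv]
  rw [h, ← len_inv P w]
  exact len_σ_mul P s w⁻¹

theorem mul_σ_cancel (s : P.S) (w : W P) : w * σ P s * σ P s = w := by
  rw [mul_assoc, σ_sq, mul_one]

/-- The case `l(sw) > l(w)` of `eq_of_len`. -/
theorem eq_of_len_up (s t : P.S) (w : W P) (h1 : len P (σ P s * w) = len P (w * σ P t))
    (h2 : len P (σ P s * w * σ P t) = len P w) (hup : len P w < len P (σ P s * w)) :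
    σ P s * w = w * σ P t := by
  obtain ⟨L, hL, rfl⟩ := exists_reduced P w
  have hw : wd P (L ++ [t]) = wd P L * σ P t := by simp
  obtain ⟨i, hi, he⟩ := exchange P s (L ++ [t]) (by rw [hw, ← mul_assoc]; omega)
  rw [hw, ← mul_assoc] at he
  simp only [List.length_append, List.length_cons, List.length_nil] at hi
  rcases Nat.lt_or_ge i L.length with hi' | hi'
  · exfalso
    rw [List.eraseIdx_append_of_lt_length hi', wd_append, wd_cons, wd_nil, mul_one] at he
    have h3 := len_wd_le P (L.eraseIdx i)
    rw [← mul_right_cancel he, List.length_eraseIdx_of_lt hi'] at h3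
    omega
  · rw [List.eraseIdx_append_of_length_le hi', show i - L.length = 0 by omega] at he
    simp only [List.eraseIdx_cons_zero, List.append_nil] at he
    calc σ P s * wd P L = σ P s * wd P L * σ P t * σ P t := (mul_σ_cancel P t _).symm
      _ = _ := by rw [he]

theorem eq_of_len (s t : P.S) (w : W P) (h1 : len P (σ P s * w) = len P (w * σ P t))
    (h2 : len P (σ P s * w * σ P t) = len P w) : σ P s * w = w * σ P t := by
  rcases len_σ_mul P s w with h | h
  · exact eq_of_len_up P s t w h1 h2 (by omega)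
  · have e := eq_of_len_up P s t (σ P s * w) (by rw [σ_cancel]; omega)
      (by rw [σ_cancel]; omega) (by rw [σ_cancel]; omega)
    rw [σ_cancel] at e
    conv_rhs => rw [e]
    rw [mul_σ_cancel]

variable (q : P.S → ℝ)

/-- The parameters are constant on conjugacy classes. -/
def ClassInv : Prop := ∀ s t : P.S, ∀ w : W P, σ P s * w = w * σ P t → q s = q t

/-- Left multiplication by a generator. -/
noncomputable def Ls (s : P.S) : (W P → ℝ) →ₗ[ℝ] (W P → ℝ) where
  toFun x w := if len P w < len P (σ P s * w) then q s * x (σ P s * w)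
    else x (σ P s * w) + (q s - 1) * x w
  map_add' x y := by
    funext w
    simp only [Pi.add_apply]
    split_ifs <;> ring
  map_smul' a x := by
    funext w
    simp only [Pi.smul_apply, smul_eq_mul, RingHom.id_apply]
    split_ifs <;> ring

/-- Right multiplication by a generator. -/
noncomputable def Rs (s : P.S) : (W P → ℝ) →ₗ[ℝ] (W P → ℝ) where
  toFun x w := if len P w < len P (w * σ P s) then q s * x (w * σ P s)
    else x (w * σ P s) + (q s - 1) * x w
  map_add' x y := by
    funext w
    simp only [Pi.add_apply]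
    split_ifs <;> ring
  map_smul' a x := by
    funext w
    simp only [Pi.smul_apply, smul_eq_mul, RingHom.id_apply]
    split_ifs <;> ring

theorem Ls_apply (s : P.S) (x : W P → ℝ) (w : W P) : Ls P q s x w =
    if len P w < len P (σ P s * w) then q s * x (σ P s * w)
    else x (σ P s * w) + (q s - 1) * x w := rfl

theorem Rs_apply (s : P.S) (x : W P → ℝ) (w : W P) : Rs P q s x w =
    if len P w < len P (w * σ P s) then q s * x (w * σ P s)
    else x (w * σ P s) + (q s - 1) * x w := rfl

variable {q}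

theorem Ls_comm_Rs (hq : ClassInv P q) (s t : P.S) (x : W P → ℝ) :
    Ls P q s (Rs P q t x) = Rs P q t (Ls P q s x) := by
  funext w
  have a1 := len_σ_mul P s w
  have a2 := len_mul_σ P t w
  have a3 := len_mul_σ P t (σ P s * w)
  have a4 := len_σ_mul P s (w * σ P t)
  rw [← mul_assoc] at a4
  simp only [Ls_apply, Rs_apply, ← mul_assoc]
  by_cases h : len P (σ P s * w) = len P (w * σ P t) ∧ len P (σ P s * w * σ P t) = len P w
  · have e := eq_of_len P s t w h.1 h.2
    have hst : q s = q t := hq s t w e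
    simp only [e, mul_σ_cancel, hst]
  · split_ifs <;> first | ring1 | (exfalso; omega)

/-! ### Basis elements -/

variable [Fintype (W P)] [DecidableEq (W P)]

/-- A basis element. -/
def e (w : W P) : W P → ℝ := Pi.single w 1

theorem sum_e (x : W P → ℝ) : x = ∑ w, x w • e P w := by
  funext v
  simp [e, Finset.sum_apply, Pi.single_apply]

theorem Ls_e_up (s : P.S) {w : W P} (h : len P w < len P (σ P s * w)) :
    Ls P q s (e P w) = e P (σ P s * w) := by
  funext v
  rw [Ls_apply]
  simp only [e, Pi.single_apply]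
  by_cases hv : v = σ P s * w
  · subst hv
    rw [σ_cancel, if_neg (show ¬ len P (σ P s * w) < len P w by omega), if_pos rfl, if_pos rfl,
      if_neg (fun e : σ P s * w = w => by rw [e] at h; omega)]
    ring
  · have h1 : σ P s * v ≠ w := fun e => hv (by rw [← e, σ_cancel])
    rw [if_neg hv, if_neg h1]
    by_cases hvw : v = w
    · subst hvw; rw [if_pos h]; ring
    · rw [if_neg hvw]; split_ifs <;> ring

theorem Ls_e_down (s : P.S) {w : W P} (h : ¬ len P w < len P (σ P s * w)) :
    Ls P q s (e P w) = (q s - 1) • e P w + q s • e P (σ P s * w) := by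
  have hl := len_σ_mul P s w
  funext v
  rw [Ls_apply]
  simp only [e, Pi.single_apply, Pi.add_apply, Pi.smul_apply, smul_eq_mul]
  by_cases hv : v = σ P s * w
  · subst hv
    have hne : σ P s * w ≠ w := fun e => by rw [e] at hl; omega
    rw [σ_cancel, if_pos (show len P (σ P s * w) < len P w by omega), if_pos rfl, if_neg hne,
      if_pos rfl]
    ring
  · have h1 : σ P s * v ≠ w := fun e => hv (by rw [← e, σ_cancel])
    rw [if_neg hv, if_neg h1]
    by_cases hvw : v = w
    · subst hvw; rw [if_neg h, if_pos rfl]; ring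
    · rw [if_neg hvw]; split_ifs <;> ring

/-- The involution. -/
def st : (W P → ℝ) →ₗ[ℝ] (W P → ℝ) where
  toFun x w := x w⁻¹
  map_add' _ _ := rfl
  map_smul' _ _ := rfl

theorem st_apply (x : W P → ℝ) (w : W P) : st P x w = x w⁻¹ := rfl

theorem st_st (x : W P → ℝ) : st P (st P x) = x := funext fun w => by simp [st_apply]

theorem st_e (w : W P) : st P (e P w) = e P w⁻¹ := by
  funext v
  simp [st_apply, e, Pi.single_apply, inv_eq_iff_eq_inv]

theorem st_Ls (s : P.S) (x : W P → ℝ) : st P (Ls P q s x) = Rs P q s (st P x) := by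
  funext w
  have h : len P (σ P s * w⁻¹) = len P (w * σ P s) := by
    rw [← len_inv, mul_inv_rev, inv_inv, σ_inv]
  simp only [st_apply, Ls_apply, Rs_apply, len_inv, h, mul_inv_rev, σ_inv]

theorem st_Rs (s : P.S) (x : W P → ℝ) : st P (Rs P q s x) = Ls P q s (st P x) := by
  conv_lhs => rw [← st_st P x, ← st_Ls, st_st]

theorem Rs_e_up (s : P.S) {w : W P} (h : len P w < len P (w * σ P s)) :
    Rs P q s (e P w) = e P (w * σ P s) := by
  conv_lhs => rw [← inv_inv w, ← st_e, ← st_Ls]
  rw [Ls_e_up P s (by rwa [← len_inv P (σ P s * w⁻¹), mul_inv_rev, inv_inv, σ_inv, len_inv]),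
    st_e, mul_inv_rev, inv_inv, σ_inv]

theorem exists_down {w : W P} (hw : w ≠ 1) :
    ∃ s : P.S, len P (σ P s * w) + 1 = len P w := by
  obtain ⟨L, hL, rfl⟩ := exists_reduced P w
  cases L with
  | nil => exact absurd rfl hw
  | cons s L =>
    refine ⟨s, ?_⟩
    have h1 := len_wd_le P L
    simp only [List.length_cons, wd_cons] at hL ⊢
    rw [σ_cancel]
    rcases len_σ_mul P s (wd P L) with h | h <;> omega

theorem exists_down_right {w : W P} (hw : w ≠ 1) :
    ∃ s : P.S, len P (w * σ P s) + 1 = len P w := by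
  obtain ⟨s, hs⟩ := exists_down P (w := w⁻¹) (by simpa using hw)
  refine ⟨s, ?_⟩
  rw [← len_inv P (w * σ P s), mul_inv_rev, σ_inv, hs, len_inv]

/-- Induction along right descents. -/
theorem induction_right {C : W P → Prop} (h1 : C 1)
    (step : ∀ u s, len P u < len P (u * σ P s) → C u → C (u * σ P s)) (w : W P) : C w := by
  induction hn : len P w using Nat.strong_induction_on generalizing w with
  | _ n ih =>
    by_cases hw : w = 1
    · rw [hw]; exact h1
    obtain ⟨s, hs⟩ := exists_down_right P hw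
    have := step (w * σ P s) s (by rw [mul_σ_cancel]; omega) (ih _ (by omega) _ rfl)
    rwa [mul_σ_cancel] at this

/-- Induction along left descents. -/
theorem induction_left {C : W P → Prop} (h1 : C 1)
    (step : ∀ u s, len P u < len P (σ P s * u) → C u → C (σ P s * u)) (w : W P) : C w := by
  induction hn : len P w using Nat.strong_induction_on generalizing w with
  | _ n ih =>
    by_cases hw : w = 1
    · rw [hw]; exact h1
    obtain ⟨s, hs⟩ := exists_down P hw
    have := step (σ P s * w) s (by rw [σ_cancel]; omega) (ih _ (by omega) _ rfl)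
    rwa [σ_cancel] at this

/-- Commuting with all right multiplications. -/
def CommR (A : Module.End ℝ (W P → ℝ)) : Prop :=
  ∀ (t : P.S) (x : W P → ℝ), A (Rs P q t x) = Rs P q t (A x)

theorem commR_ext {A B : Module.End ℝ (W P → ℝ)} (hA : CommR P (q := q) A)
    (hB : CommR P (q := q) B) (h : A (e P 1) = B (e P 1)) : A = B := by
  refine LinearMap.ext fun x => ?_
  have key : ∀ w, A (e P w) = B (e P w) := induction_right P (C := fun w => A (e P w) = B (e P w)) h
    fun u s hu ih => by rw [← Rs_e_up P (q := q) s hu, hA, hB, ih]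
  rw [sum_e P x, map_sum, map_sum]
  exact Finset.sum_congr rfl fun w _ => by rw [map_smul, map_smul, key]

variable (q)

/-- Left multiplication by a basis element, through a chosen reduced word. -/
noncomputable def Le (w : W P) : Module.End ℝ (W P → ℝ) :=
  ((exists_reduced P w).choose.map fun s => Ls P q s).prod

/-- Left multiplication. -/
noncomputable def Lop : (W P → ℝ) →ₗ[ℝ] Module.End ℝ (W P → ℝ) where
  toFun x := ∑ w, x w • Le P q w
  map_add' x y := by simp only [Pi.add_apply, add_smul, Finset.sum_add_distrib]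
  map_smul' a x := by simp only [Pi.smul_apply, smul_eq_mul, mul_smul, Finset.smul_sum, RingHom.id_apply]

variable {q}

theorem Le_e1 (w : W P) : Le P q w (e P 1) = e P w := by
  have key : ∀ L : List P.S, L.length = len P (wd P L) →
      (L.map fun s => Ls P q s).prod (e P 1) = e P (wd P L) := by
    intro L
    induction L with
    | nil => intro _; simp
    | cons s L ih =>
      intro h
      have h1 := len_wd_le P L
      rw [List.length_cons, wd_cons] at h
      have h2 := len_σ_mul_le P s (wd P L)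
      rw [List.map_cons, List.prod_cons, Module.End.mul_apply, ih (by omega), wd_cons,
        Ls_e_up P s (by omega)]
  obtain ⟨h1, h2⟩ := (exists_reduced P w).choose_spec
  have := key _ (by rw [h2]; exact h1)
  rw [h2] at this
  exact this

variable (hq : ClassInv P q)

include hq in
theorem commR_Le (w : W P) : CommR P (q := q) (Le P q w) := by
  have key : ∀ L : List P.S, CommR P (q := q) ((L.map fun s => Ls P q s).prod) := by
    intro L
    induction L with
    | nil => intro t x; rfl
    | cons s L ih =>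
      intro t x
      rw [List.map_cons, List.prod_cons, Module.End.mul_apply, Module.End.mul_apply, ih,
        Ls_comm_Rs P hq]
  exact key _

theorem Lop_e1 (x : W P → ℝ) : Lop P q x (e P 1) = x := by
  show (∑ w, x w • Le P q w) (e P 1) = x
  rw [LinearMap.sum_apply]
  conv_rhs => rw [sum_e P x]
  exact Finset.sum_congr rfl fun w _ => by rw [LinearMap.smul_apply, Le_e1]

include hq in
theorem commR_Lop (x : W P → ℝ) : CommR P (q := q) (Lop P q x) := by
  intro t y
  show (∑ w, x w • Le P q w) _ = Rs P q t ((∑ w, x w • Le P q w) y)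
  rw [LinearMap.sum_apply, LinearMap.sum_apply, map_sum]
  exact Finset.sum_congr rfl fun w _ => by
    rw [LinearMap.smul_apply, LinearMap.smul_apply, map_smul, commR_Le P hq]

include hq in
theorem eq_Lop {A : Module.End ℝ (W P → ℝ)} (hA : CommR P (q := q) A) :
    A = Lop P q (A (e P 1)) :=
  commR_ext P hA (commR_Lop P hq _) (Lop_e1 P _).symm

include hq in
theorem Lop_Lop (a b : W P → ℝ) : Lop P q (Lop P q a b) = Lop P q a * Lop P q b := by
  refine commR_ext P (commR_Lop P hq _) (fun t y => ?_) ?_
  · rw [Module.End.mul_apply, Module.End.mul_apply, commR_Lop P hq, commR_Lop P hq]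
  · rw [Module.End.mul_apply, Lop_e1, Lop_e1]

include hq in
theorem Lop_e_one : Lop P q (e P 1) = 1 :=
  commR_ext P (commR_Lop P hq _) (fun _ _ => rfl) (Lop_e1 P _)

include hq in
theorem Lop_Ls (s : P.S) (a : W P → ℝ) : Lop P q (Ls P q s a) = Ls P q s * Lop P q a := by
  refine commR_ext P (commR_Lop P hq _) (fun t y => ?_) ?_
  · rw [Module.End.mul_apply, Module.End.mul_apply, commR_Lop P hq, Ls_comm_Rs P hq]
  · rw [Module.End.mul_apply, Lop_e1, Lop_e1]

theorem len_one_lt (s : P.S) : len P 1 < len P (σ P s * 1) := by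
  rw [mul_one, len_σ, len_one]; exact Nat.one_pos

include hq in
theorem Lop_σ (s : P.S) : Lop P q (e P (σ P s)) = Ls P q s := by
  rw [← mul_one (σ P s), ← Ls_e_up P (q := q) s (len_one_lt P s), Lop_Ls P hq, Lop_e_one P hq, mul_one]

theorem Rs_e_one (s : P.S) : Rs P q s (e P 1) = e P (σ P s) := by
  rw [Rs_e_up P s (by rw [one_mul, len_σ, len_one]; exact Nat.one_pos), one_mul]

include hq in
theorem Lop_apply_σ (s : P.S) (a : W P → ℝ) : Lop P q a (e P (σ P s)) = Rs P q s a := by
  rw [← Rs_e_one P (q := q) s, commR_Lop P hq, Lop_e1]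

/-! ### The trace -/

theorem tau_Ls (s : P.S) (x : W P → ℝ) : Ls P q s x 1 = q s * x (σ P s) := by
  rw [Ls_apply, if_pos (len_one_lt P s), mul_one]

theorem tau_Rs (s : P.S) (x : W P → ℝ) : Rs P q s x 1 = q s * x (σ P s) := by
  rw [Rs_apply, if_pos (by rw [one_mul, len_σ, len_one]; exact Nat.one_pos), one_mul]

include hq in
theorem tau_comm (a x : W P → ℝ) : Lop P q a x 1 = Lop P q x a 1 := by
  have key : ∀ w, ∀ x, Lop P q (e P w) x 1 = Lop P q x (e P w) 1 := by
    refine induction_left P (fun x => ?_) fun u s hu ih x => ?_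
    · rw [Lop_e_one P hq, Lop_e1]; rfl
    · rw [← Ls_e_up P (q := q) s hu, Lop_Ls P hq, Module.End.mul_apply]
      have hs : ∀ y, Ls P q s y 1 = Lop P q y (e P (σ P s)) 1 := fun y => by
        rw [tau_Ls, Lop_apply_σ P hq, tau_Rs]
      rw [hs, Lop_Lop P hq, Module.End.mul_apply, ih, Lop_Lop P hq, Module.End.mul_apply,
        ← Lop_σ P hq s]
      -- `τ((x e_s) b) = τ(x (e_s b))`

  conv_lhs => rw [sum_e P a]
  conv_rhs => rw [sum_e P a]
  simp only [map_sum, map_smul, LinearMap.sum_apply, LinearMap.smul_apply, Finset.sum_apply,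
    Pi.smul_apply, key]

variable (q) in
/-- The index of a basis element. -/
noncomputable def c (w : W P) : ℝ := Lop P q (e P w) (e P w⁻¹) 1

include hq in
theorem tau_basis (u : W P) : (∀ v, v ≠ u⁻¹ → Lop P q (e P u) (e P v) 1 = 0) ∧
    ∀ s, len P u < len P (u * σ P s) → c P q (u * σ P s) = q s * c P q u := by
  have hz : ∀ u, ∀ v, v ≠ u⁻¹ → Lop P q (e P u) (e P v) 1 = 0 := by
    refine induction_right P (fun v hv => ?_) fun u s hu ih v hv => ?_
    · rw [Lop_e_one P hq]
      show e P v 1 = 0
      simp only [inv_one] at hv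
      exact Pi.single_eq_of_ne (Ne.symm hv) _
    · rw [← Rs_e_up P (q := q) s hu, ← Lop_apply_σ P hq, Lop_Lop P hq, Module.End.mul_apply,
        Lop_σ P hq]
      have hv' : σ P s * v ≠ u⁻¹ := fun e => hv (by rw [mul_inv_rev, σ_inv, ← e, σ_cancel])
      by_cases h : len P v < len P (σ P s * v)
      · rw [Ls_e_up P s h, ih _ hv']
      · rw [Ls_e_down P s h, map_add, map_smul, map_smul, Pi.add_apply, Pi.smul_apply,
          Pi.smul_apply, ih _ hv', ih v fun e => h ?_, smul_zero, smul_zero, add_zero]
        subst e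
        rw [len_inv, ← len_inv P (σ P s * u⁻¹), mul_inv_rev, inv_inv, σ_inv]
        exact hu
  refine ⟨hz u, fun s hu => ?_⟩
  rw [c, ← Rs_e_up P (q := q) s hu, ← Lop_apply_σ P hq, Lop_Lop P hq, Module.End.mul_apply,
    Lop_σ P hq, mul_inv_rev, σ_inv]
  have h1 : ¬ len P (σ P s * u⁻¹) < len P (σ P s * (σ P s * u⁻¹)) := by
    rw [σ_cancel, ← len_inv P (σ P s * u⁻¹), mul_inv_rev, inv_inv, σ_inv, len_inv]; omega
  rw [Ls_e_down P s h1, σ_cancel, map_add, map_smul, map_smul, Pi.add_apply, Pi.smul_apply,
    Pi.smul_apply, hz u _ (fun e => σ_ne_one P s (mul_eq_right.1 e)), smul_zero, zero_add]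
  rfl

include hq in
theorem c_one : c P q 1 = 1 := by
  rw [c, inv_one, Lop_e_one P hq]
  exact Pi.single_eq_same _ _

include hq in
theorem c_pos (hpos : ∀ s, 0 < q s) (w : W P) : 0 < c P q w :=
  induction_right P (C := fun w => 0 < c P q w) (by rw [c_one P hq]; exact one_pos)
    (fun u s hu ih => by rw [(tau_basis P hq u).2 s hu]; exact mul_pos (hpos s) ih) w

include hq in
theorem c_inv (w : W P) : c P q w⁻¹ = c P q w := by rw [c, c, inv_inv, tau_comm P hq]

include hq in
theorem tau_expand (x : W P → ℝ) (v : W P) : Lop P q x (e P v⁻¹) 1 = c P q v * x v := by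
  conv_lhs => rw [sum_e P x]
  rw [map_sum, LinearMap.sum_apply, Finset.sum_apply, Finset.sum_eq_single v]
  · rw [map_smul, LinearMap.smul_apply, Pi.smul_apply, smul_eq_mul, mul_comm]; rfl
  · intro w _ hw
    rw [map_smul, LinearMap.smul_apply, Pi.smul_apply,
      (tau_basis P hq w).1 _ (fun e => hw (inv_injective e).symm), smul_zero]
  · intro h; exact absurd (Finset.mem_univ v) h

include hq in
theorem st_Lop (a b : W P → ℝ) : st P (Lop P q a b) = Lop P q (st P b) (st P a) := by
  have key : ∀ w, ∀ b, st P (Lop P q (e P w) b) = Lop P q (st P b) (e P w⁻¹) := by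
    refine induction_left P (fun b => ?_) fun u s hu ih b => ?_
    · rw [Lop_e_one P hq, inv_one, Lop_e1]; rfl
    · rw [← Ls_e_up P (q := q) s hu, Lop_Ls P hq, Module.End.mul_apply, st_Ls, ih,
        ← commR_Lop P hq, mul_inv_rev, σ_inv, Rs_e_up]
      rw [← len_inv P (u⁻¹ * σ P s), mul_inv_rev, inv_inv, σ_inv, len_inv]
      exact hu
  conv_lhs => rw [sum_e P a]
  conv_rhs => rw [sum_e P a]
  simp only [map_sum, map_smul, LinearMap.sum_apply, LinearMap.smul_apply, key, st_e]

include hq in
theorem tau_form (y : W P → ℝ) :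
    Lop P q (st P y) y 1 = ∑ v, c P q v * (y v * y v) := by
  rw [show Lop P q (st P y) y = Lop P q (st P y) (∑ v, y v • e P v) from congrArg _ (sum_e P y)]
  rw [map_sum, Finset.sum_apply]
  refine Finset.sum_congr rfl fun v _ => ?_
  rw [map_smul, Pi.smul_apply, smul_eq_mul, ← inv_inv v, tau_expand P hq, st_apply, c_inv P hq,
    inv_inv]
  ring

/-! ### The centre and the Casimir map -/

variable (q)

/-- The obstruction to being central. -/
noncomputable def adMap : (W P → ℝ) →ₗ[ℝ] (P.S → W P → ℝ) :=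
  LinearMap.pi fun s => Ls P q s - Rs P q s

/-- The centre. -/
noncomputable def Z : Submodule ℝ (W P → ℝ) := LinearMap.ker (adMap P q)

/-- The Casimir map. -/
noncomputable def Phi : (W P → ℝ) →ₗ[ℝ] (W P → ℝ) where
  toFun x := ∑ w, (c P q w)⁻¹ • Lop P q (e P w) (Lop P q x (e P w⁻¹))
  map_add' x y := by simp only [map_add, LinearMap.add_apply, smul_add, Finset.sum_add_distrib]
  map_smul' a x := by
    simp only [map_smul, LinearMap.smul_apply, Finset.smul_sum, RingHom.id_apply]
    exact Finset.sum_congr rfl fun w _ => smul_comm _ _ _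

theorem mem_Z {x : W P → ℝ} : x ∈ Z P q ↔ ∀ s, Ls P q s x = Rs P q s x := by
  simp [Z, adMap, funext_iff, sub_eq_zero]

variable {q}

include hq in
theorem adjoint (s : P.S) (v w : W P) :
    c P q v * Ls P q s (e P w) v = c P q w * Ls P q s (e P v) w := by
  have hs : ∀ a b, Lop P q (Ls P q s a) b 1 = Lop P q (e P (σ P s)) (Lop P q a b) 1 := fun a b => by
    rw [Lop_σ P hq, Lop_Ls P hq, Module.End.mul_apply]
  rw [← tau_expand P hq, ← tau_expand P hq, hs, hs]
  set z := Lop P q (e P v) (e P w⁻¹) with hz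
  have hw : Lop P q (e P w) (e P v⁻¹) = st P z := by
    rw [hz, st_Lop P hq, st_e, st_e, inv_inv]
  rw [hw, Lop_σ P hq, tau_Ls, tau_Ls, st_apply, σ_inv]

include hq in
theorem Phi_mem (hpos : ∀ s, 0 < q s) (x : W P → ℝ) : Phi P q x ∈ Z P q := by
  rw [mem_Z]
  intro s
  have hL : Ls P q s (Phi P q x) = ∑ w, ∑ v,
      ((c P q w)⁻¹ * Ls P q s (e P w) v) • Lop P q (e P v) (Lop P q x (e P w⁻¹)) := by
    show Ls P q s (∑ w, (c P q w)⁻¹ • Lop P q (e P w) (Lop P q x (e P w⁻¹))) = _
    rw [map_sum]
    refine Finset.sum_congr rfl fun w _ => ?_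
    rw [map_smul, ← Module.End.mul_apply, ← Lop_Ls P hq]
    conv_lhs => rw [sum_e P (Ls P q s (e P w))]
    simp only [map_sum, map_smul, LinearMap.sum_apply, LinearMap.smul_apply, Finset.smul_sum,
      smul_smul]
  have hR : Rs P q s (Phi P q x) = ∑ v, ∑ w,
      ((c P q v)⁻¹ * Rs P q s (e P v⁻¹) w⁻¹) • Lop P q (e P v) (Lop P q x (e P w⁻¹)) := by
    show Rs P q s (∑ w, (c P q w)⁻¹ • Lop P q (e P w) (Lop P q x (e P w⁻¹))) = _
    rw [map_sum]
    refine Finset.sum_congr rfl fun v _ => ?_
    rw [map_smul, ← commR_Lop P hq, ← commR_Lop P hq]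
    conv_lhs => rw [sum_e P (Rs P q s (e P v⁻¹))]
    simp only [map_sum, map_smul, Finset.smul_sum, smul_smul]
    exact Fintype.sum_equiv (Equiv.inv (W P)) _ _ fun w => by simp
  rw [hL, hR, Finset.sum_comm]
  refine Finset.sum_congr rfl fun v _ => Finset.sum_congr rfl fun w _ => ?_
  congr 1
  rw [← st_e, ← st_Ls, st_apply, inv_inv]
  have h1 := (c_pos P hq hpos v).ne'
  have h2 := (c_pos P hq hpos w).ne'
  field_simp
  linear_combination adjoint P hq s v w

include hq in
theorem central_comm {z : W P → ℝ} (hz : z ∈ Z P q) (a : W P → ℝ) :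
    Lop P q z a = Lop P q a z := by
  rw [mem_Z] at hz
  have key : ∀ w, Lop P q z (e P w) = Lop P q (e P w) z := by
    refine induction_left P ?_ fun u s hu ih => ?_
    · rw [Lop_e_one P hq, Lop_e1]; rfl
    · rw [← Ls_e_up P (q := q) s hu, Lop_Ls P hq, Module.End.mul_apply, ← ih]
      have h1 : Lop P q z * Ls P q s = Ls P q s * Lop P q z := by
        rw [← Lop_Ls P hq, hz s, ← Lop_apply_σ P hq, Lop_Lop P hq, Lop_σ P hq]
      exact LinearMap.congr_fun h1 (e P u)
  conv_lhs => rw [sum_e P a]
  conv_rhs => rw [sum_e P a]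
  simp only [map_sum, map_smul, LinearMap.sum_apply, LinearMap.smul_apply, key]

include hq in
theorem Phi_eq_zero (hpos : ∀ s, 0 < q s) {z : W P → ℝ} (hz : z ∈ Z P q) (h : Phi P q z = 0) :
    z = 0 := by
  have hterm : ∀ w, Lop P q (st P z) (Lop P q (e P w) (Lop P q z (e P w⁻¹))) 1 =
      Lop P q (st P (Lop P q (e P w⁻¹) z)) (Lop P q (e P w⁻¹) z) 1 := fun w => by
    rw [central_comm P hq hz, st_Lop P hq, st_e, inv_inv, Lop_Lop P hq, Module.End.mul_apply]
  have h0 : ∑ w, (c P q w)⁻¹ *
      ∑ v, c P q v * (Lop P q (e P w⁻¹) z v * Lop P q (e P w⁻¹) z v) = 0 := by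
    have h1 : Lop P q (st P z) (Phi P q z) 1 = 0 := by rw [h, map_zero]; rfl
    rw [← h1]
    show _ = Lop P q (st P z) (∑ w, (c P q w)⁻¹ • Lop P q (e P w) (Lop P q z (e P w⁻¹))) 1
    rw [map_sum, Finset.sum_apply]
    refine Finset.sum_congr rfl fun w _ => ?_
    rw [map_smul, Pi.smul_apply, smul_eq_mul, hterm, tau_form P hq]
  have hcp := c_pos P hq hpos
  have h2 := (Finset.sum_eq_zero_iff_of_nonneg fun w _ => mul_nonneg (inv_nonneg.2 (hcp w).le)
    (Finset.sum_nonneg fun v _ => mul_nonneg (hcp v).le (mul_self_nonneg _))).1 h0 1 (Finset.mem_univ _)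
  rw [inv_one, c_one P hq, inv_one, one_mul, Lop_e_one P hq] at h2
  have h3 := (Finset.sum_eq_zero_iff_of_nonneg fun v _ =>
    mul_nonneg (hcp v).le (mul_self_nonneg _)).1 h2
  funext v
  have h4 := h3 v (Finset.mem_univ _)
  exact mul_self_eq_zero.1 ((mul_eq_zero.1 h4).resolve_left (hcp v).ne')

include hq in
/-- The image of the Casimir map is the centre. -/
theorem range_Phi (hpos : ∀ s, 0 < q s) : LinearMap.range (Phi P q) = Z P q := by
  refine le_antisymm ?_ fun z hz => ?_
  · rintro _ ⟨x, rfl⟩; exact Phi_mem P hq hpos x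
  let f : Z P q →ₗ[ℝ] Z P q :=
    ((Phi P q).comp (Z P q).subtype).codRestrict (Z P q) fun x => Phi_mem P hq hpos _
  have hf : Function.Injective f := by
    rw [← LinearMap.ker_eq_bot, LinearMap.ker_eq_bot']
    intro x hx
    exact Subtype.ext (Phi_eq_zero P hq hpos x.2 (congrArg Subtype.val hx))
  obtain ⟨y, hy⟩ := LinearMap.injective_iff_surjective.1 hf ⟨z, hz⟩
  exact ⟨y, congrArg Subtype.val hy⟩

end CfsgLib.HeckeCenter
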