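import Cfsg.Agent.HeckeCenter.Group
import Cfsg.Agent.Chev.CoxeterIso

/-! The constituents of the principal series permutation character of a Chevalley group. -/

set_option autoImplicit false

namespace CfsgLib.HeckeCenter

open Cfsg.Lie CfsgLib.BNPair CfsgLib.Chev

universe u

theorem chev_card_constituents {D : ChevalleyDatum} (S : Sys.{u} D) {F : Type u} [Field F] [Fintype F]
    {n : ℕ} (hn : D.rank = n) {C : List (List ℤ)} (hC : CartanOK D C)
    (M : CoxeterMatrix (Fin n)) {Mf : ℕ → ℕ → ℕ} (hMf : ∀ i j : Fin n, Mf i j = M i j)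
    (hM : coxOK D.rank C Mf = true) :
    Nat.card {χ : Cfsg.IrrCharacter ↥(D.group F) //
      ∃ φ : ↥(D.group F) → ℂ, Cfsg.IsCharacter ↥(D.group F) φ ∧
        Cfsg.fixedPointCharacter ((D.borelSubgroup F).subgroupOf (D.group F)) =
          (χ : ↥(D.group F) → ℂ) + φ} = Nat.card (ConjClasses M.Group) := by
  classical
  obtain ⟨e, -⟩ := S.exists_coxeter_perm F hn hC M hMf hM
  haveI := Sys.finite_GL (D := D) (F := F)
  haveI := Fintype.ofFinite ↥(D.group F)
  set P := S.bnPair F with hP
  haveI : Finite (W P) := Quotient.finite _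
  haveI := Fintype.ofFinite (W P)
  haveI := Fintype.ofFinite P.S
  haveI := Fintype.ofFinite P.B
  haveI := Fintype.ofFinite (Cfsg.IrrCharacter ↥(D.group F))
  refine (card_constituents P).trans (Nat.card_eq_of_bijective (ConjClasses.map e.toMonoidHom) ⟨?_, ?_⟩)
  · intro a b h
    obtain ⟨x, rfl⟩ := ConjClasses.mk_surjective a
    obtain ⟨y, rfl⟩ := ConjClasses.mk_surjective b
    refine ConjClasses.mk_eq_mk_iff_isConj.2 ?_
    have h' : IsConj (e x) (e y) := ConjClasses.mk_eq_mk_iff_isConj.1 h
    simpa using e.symm.toMonoidHom.map_isConj h'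
  · exact ConjClasses.map_surjective e.surjective

end CfsgLib.HeckeCenter
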