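import Cfsg.Agent.HeckeCenter.Algebra
import Mathlib.Analysis.Normed.Module.FiniteDimension
import Mathlib.Topology.LocallyConstant.Basic
import Mathlib.GroupTheory.GroupAction.ConjAct

/-!
# The dimension of the centre does not depend on the parameters
-/

set_option autoImplicit false
set_option linter.unusedSectionVars false

namespace CfsgLib.HeckeCenter

open CfsgLib.BNPair

/-- The rank of a pointwise continuous family of linear maps is lower semicontinuous. -/
theorem rank_semicontinuous {V V' : Type*} [AddCommGroup V] [Module ℝ V] [NormedAddCommGroup V']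
    [NormedSpace ℝ V'] [FiniteDimensional ℝ V'] (F : ℝ → (V →ₗ[ℝ] V'))
    (hF : ∀ x, Continuous fun t => F t x) (t₀ : ℝ) : ∀ᶠ t in nhds t₀,
      Module.finrank ℝ (LinearMap.range (F t₀)) ≤ Module.finrank ℝ (LinearMap.range (F t)) := by
  set r := Module.finrank ℝ (LinearMap.range (F t₀))
  let b := Module.finBasis ℝ (LinearMap.range (F t₀))
  have hex : ∀ i : Fin r, ∃ x, F t₀ x = (b i : V') := fun i => (b i).2
  choose x hx using hex
  have hli : LinearIndependent ℝ fun i => F t₀ (x i) := by
    simp only [hx]
    exact b.linearIndependent.map' (LinearMap.range (F t₀)).subtype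
      (Submodule.ker_subtype _)
  have hopen := (isOpen_setOf_linearIndependent (𝕜 := ℝ) (E := V') (ι := Fin r)).preimage
    (continuous_pi fun i => hF (x i))
  filter_upwards [hopen.mem_nhds hli] with t ht
  have ht' : LinearIndependent ℝ fun i => F t (x i) := ht
  have h := finrank_span_eq_card ht'
  rw [Fintype.card_fin] at h
  rw [← h]
  exact Submodule.finrank_mono (Submodule.span_le.2 (by rintro _ ⟨i, rfl⟩; exact ⟨_, rfl⟩))

variable {G : Type*} [Group G] (P : Cfsg.BNPair G) [Fintype (W P)] [DecidableEq (W P)]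
  [Fintype P.S]

variable (q : P.S → ℝ)

/-- The deformed parameters. -/
noncomputable def qd (t : ℝ) (s : P.S) : ℝ := 1 + t * t * (q s - 1)

variable {q}

theorem qd_inv (hq : ClassInv P q) (t : ℝ) : ClassInv P (qd P q t) :=
  fun s s' w h => by rw [qd, qd, hq s s' w h]

theorem qd_pos (hq1 : ∀ s, 1 ≤ q s) (t : ℝ) (s : P.S) : 0 < qd P q t s := by
  have : 0 ≤ t * t * (q s - 1) := mul_nonneg (mul_self_nonneg t) (by linarith [hq1 s])
  unfold qd; linarith

theorem cont_Ls (s : P.S) {f : ℝ → W P → ℝ} (hf : Continuous f) :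
    Continuous fun t => Ls P (qd P q t) s (f t) := by
  refine continuous_pi fun w => ?_
  simp only [Ls_apply, qd]
  by_cases h : len P w < len P (σ P s * w)
  · simp only [if_pos h]; fun_prop
  · simp only [if_neg h]; fun_prop

theorem cont_Rs (s : P.S) {f : ℝ → W P → ℝ} (hf : Continuous f) :
    Continuous fun t => Rs P (qd P q t) s (f t) := by
  refine continuous_pi fun w => ?_
  simp only [Rs_apply, qd]
  by_cases h : len P w < len P (w * σ P s)
  · simp only [if_pos h]; fun_prop
  · simp only [if_neg h]; fun_prop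

theorem cont_Le (w : W P) {f : ℝ → W P → ℝ} (hf : Continuous f) :
    Continuous fun t => Le P (qd P q t) w (f t) := by
  unfold Le
  induction (exists_reduced P w).choose with
  | nil => exact hf
  | cons s L ih =>
    simp only [List.map_cons, List.prod_cons, Module.End.mul_apply]
    exact cont_Ls P s ih

theorem cont_Lop {f g : ℝ → W P → ℝ} (hf : Continuous f) (hg : Continuous g) :
    Continuous fun t => Lop P (qd P q t) (f t) (g t) := by
  have e : (fun t => Lop P (qd P q t) (f t) (g t)) =
      fun t => ∑ w, f t w • Le P (qd P q t) w (g t) := funext fun t => by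
    show (∑ w, f t w • Le P (qd P q t) w) (g t) = _
    simp [LinearMap.sum_apply]
  rw [e]
  exact continuous_finsetSum _ fun w _ =>
    ((continuous_apply w).comp hf).smul (cont_Le P w hg)

theorem cont_Phi (hq : ClassInv P q) (hq1 : ∀ s, 1 ≤ q s) (x : W P → ℝ) :
    Continuous fun t => Phi P (qd P q t) x := by
  show Continuous fun t => ∑ w, (c P (qd P q t) w)⁻¹ •
    Lop P (qd P q t) (e P w) (Lop P (qd P q t) x (e P w⁻¹))
  refine continuous_finsetSum _ fun w _ => ?_
  have h1 : Continuous fun t : ℝ => c P (qd P q t) w :=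
    (continuous_apply (1 : W P)).comp (cont_Lop P (f := fun _ => e P w) (g := fun _ => e P w⁻¹)
      continuous_const continuous_const)
  exact (h1.inv₀ fun t => (c_pos P (qd_inv P hq t) (qd_pos P hq1 t) w).ne').smul
    (cont_Lop P (f := fun _ => e P w) continuous_const
      (cont_Lop P (f := fun _ => x) (g := fun _ => e P w⁻¹) continuous_const continuous_const))

theorem cont_ad (x : W P → ℝ) : Continuous fun t => adMap P (qd P q t) x := by
  refine continuous_pi fun s => ?_
  exact (cont_Ls P s (continuous_const (y := x))).sub (cont_Rs P s (continuous_const (y := x)))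

theorem finrank_Z_locallyConstant (hq : ClassInv P q) (hq1 : ∀ s, 1 ≤ q s) :
    IsLocallyConstant fun t => Module.finrank ℝ (Z P (qd P q t)) := by
  rw [IsLocallyConstant.iff_eventually_eq]
  intro t₀
  filter_upwards [rank_semicontinuous (fun t => Phi P (qd P q t)) (cont_Phi P hq hq1) t₀,
    rank_semicontinuous (fun t => adMap P (qd P q t)) (cont_ad P) t₀] with t h1 h2
  rw [range_Phi P (qd_inv P hq t₀) (qd_pos P hq1 t₀), range_Phi P (qd_inv P hq t) (qd_pos P hq1 t)] at h1
  have e1 := LinearMap.finrank_range_add_finrank_ker (adMap P (qd P q t₀))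
  have e2 := LinearMap.finrank_range_add_finrank_ker (adMap P (qd P q t))
  show Module.finrank ℝ (LinearMap.ker (adMap P (qd P q t))) =
    Module.finrank ℝ (LinearMap.ker (adMap P (qd P q t₀)))
  change Module.finrank ℝ (LinearMap.ker (adMap P (qd P q t₀))) ≤
    Module.finrank ℝ (LinearMap.ker (adMap P (qd P q t))) at h1
  omega

/-- At the trivial parameters the centre consists of the class functions of the Weyl group. -/
theorem finrank_Z_one :
    Module.finrank ℝ (Z P fun _ => (1 : ℝ)) = Nat.card (ConjClasses (W P)) := by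
  classical
  have hmem : ∀ x : W P → ℝ, x ∈ Z P (fun _ => (1 : ℝ)) ↔
      ∀ (s : P.S) (w : W P), x (σ P s * w) = x (w * σ P s) := by
    intro x
    simp only [mem_Z, funext_iff, Ls_apply, Rs_apply, sub_self, zero_mul, add_zero, one_mul, ite_self]
  have hconj : ∀ x ∈ Z P (fun _ => (1 : ℝ)), ∀ g w : W P, x (g * w * g⁻¹) = x w := by
    intro x hx g
    obtain ⟨L, rfl⟩ := wd_surjective P g
    induction L with
    | nil => intro w; simp
    | cons s L ih =>
      intro w
      rw [wd_cons, mul_inv_rev, σ_inv, show σ P s * wd P L * w * ((wd P L)⁻¹ * σ P s) =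
        σ P s * (wd P L * w * (wd P L)⁻¹ * σ P s) by simp [mul_assoc], (hmem x).1 hx,
        mul_σ_cancel, ih]
  let f : (ConjClasses (W P) → ℝ) →ₗ[ℝ] Z P (fun _ => (1 : ℝ)) :=
    (LinearMap.funLeft ℝ ℝ (ConjClasses.mk : W P → ConjClasses (W P))).codRestrict _ fun y =>
      (hmem _).2 fun s w => congrArg y (ConjClasses.mk_eq_mk_iff_isConj.2
        (isConj_iff.2 ⟨σ P s, by simp [σ_inv, ← mul_assoc, σ_sq]⟩))
  have hf : Function.Bijective f := by
    refine ⟨fun y y' h => funext fun C => ?_, fun x => ?_⟩
    · obtain ⟨w, rfl⟩ := ConjClasses.mk_surjective C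
      exact congrFun (congrArg Subtype.val h) w
    · refine ⟨fun C => x.1 C.out, Subtype.ext (funext fun w => ?_)⟩
      show x.1 (ConjClasses.mk w).out = x.1 w
      obtain ⟨g, hg⟩ := isConj_iff.1
        (ConjClasses.mk_eq_mk_iff_isConj.1 (Quotient.out_eq (ConjClasses.mk w)).symm)
      exact (congrArg x.1 hg).symm.trans (hconj x.1 x.2 g w)
  rw [← (LinearEquiv.ofBijective f hf).finrank_eq, Module.finrank_pi, Nat.card_eq_fintype_card]

/-- Tits' deformation argument. -/
theorem finrank_Z_eq (hq : ClassInv P q) (hq1 : ∀ s, 1 ≤ q s) :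
    Module.finrank ℝ (Z P q) = Nat.card (ConjClasses (W P)) := by
  have h := (finrank_Z_locallyConstant P hq hq1).apply_eq_of_preconnectedSpace 1 0
  have e1 : qd P q 1 = q := funext fun s => by simp [qd]
  have e0 : qd P q 0 = fun _ => 1 := funext fun s => by simp [qd]
  rw [e1, e0] at h
  rw [h, finrank_Z_one]

end CfsgLib.HeckeCenter
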