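import Cfsg.Agent.HeckeCenter.Deform
import Cfsg.Agent.FeitHigman.Hecke
import Cfsg.Agent.CharBasics.Central
import Cfsg.Agent.CharBasics.Induced
import Cfsg.Agent.IndFun.Basic
import Cfsg.Prelude.Def_ParabolicCharacters

/-!
# The constituents of the permutation character on `G / B` are counted by the classes of `W`
-/

set_option autoImplicit false
set_option linter.unusedSectionVars false

namespace CfsgLib.HeckeCenter

open CfsgLib.BNPair CfsgLib.FeitHigman

universe u

variable {G : Type u} [Group G] (P : Cfsg.BNPair G)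

theorem rel_smul (g : G) {w : W P} {x y : G ⧸ P.B} : Rel P w (g • x) (g • y) ↔ Rel P w x y := by
  obtain ⟨a, rfl⟩ := QuotientGroup.mk_surjective x
  obtain ⟨b, rfl⟩ := QuotientGroup.mk_surjective y
  rw [MulAction.Quotient.smul_coe, MulAction.Quotient.smul_coe, rel_iff, rel_iff, smul_eq_mul,
    smul_eq_mul]
  simp [mul_assoc]

theorem exists_rel (x y : G ⧸ P.B) : ∃ w, Rel P w x y := bruhat P _

theorem rel_move {w : W P} {x y x' y' : G ⧸ P.B} (h : Rel P w x y) (h' : Rel P w x' y') :
    ∃ g : G, g • x = x' ∧ g • y = y' := by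
  obtain ⟨a, rfl⟩ := QuotientGroup.mk_surjective x
  obtain ⟨b, rfl⟩ := QuotientGroup.mk_surjective y
  obtain ⟨a', rfl⟩ := QuotientGroup.mk_surjective x'
  obtain ⟨b', rfl⟩ := QuotientGroup.mk_surjective y'
  rw [rel_iff] at h h'
  rw [cell_eq_of_mem P h, DoubleCoset.mem_doubleCoset] at h'
  obtain ⟨u, hu, v, hv, e⟩ := h'
  refine ⟨a' * u * a⁻¹, ?_, ?_⟩
  · rw [MulAction.Quotient.smul_coe, smul_eq_mul, inv_mul_cancel_right, QuotientGroup.eq]
    simpa using inv_mem hu
  · rw [MulAction.Quotient.smul_coe, smul_eq_mul, QuotientGroup.eq]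
    have e' : b' = a' * (u * (a⁻¹ * b) * v) := by rw [← e, mul_inv_cancel_left]
    rw [e', show (a' * u * a⁻¹ * b)⁻¹ * (a' * (u * (a⁻¹ * b) * v)) = v by group]
    exact hv

/-- The base point. -/
def o : G ⧸ P.B := ((1 : G) : G ⧸ P.B)

/-- A point in a given relative position to the base point. -/
noncomputable def pt (w : W P) : G ⧸ P.B := ((cell_nonempty P w).choose : G ⧸ P.B)

theorem rel_pt (w : W P) : Rel P w (o P) (pt P w) := by
  rw [o, pt, rel_iff, inv_one, one_mul]
  exact (cell_nonempty P w).choose_spec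

variable [Fintype G]

open Classical in
/-- The matrix entries of a function on the group in the permutation representation. -/
noncomputable def Fm {R : Type*} [AddCommMonoid R] (f : G → R) (x y : G ⧸ P.B) : R :=
  ∑ g : G, if g • x = y then f g else 0

/-- The coordinates of `Fm`. -/
noncomputable def uF {R : Type*} [AddCommMonoid R] (f : G → R) (w : W P) : R :=
  Fm P f (o P) (pt P w)

theorem Fm_smul {R : Type*} [AddCommMonoid R] {f : G → R} (hf : ∀ g h, f (h * g * h⁻¹) = f g)
    (h : G) (x y : G ⧸ P.B) : Fm P f (h • x) (h • y) = Fm P f x y := by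
  classical
  refine (Fintype.sum_equiv (MulAut.conj h).toEquiv _ _ fun g => ?_).symm
  show _ = if (h * g * h⁻¹) • h • x = h • y then f (h * g * h⁻¹) else 0
  simp only [smul_smul, inv_mul_cancel_right, hf]
  simp only [← smul_smul, smul_left_cancel_iff]

theorem Fm_eq_uF {R : Type*} [AddCommMonoid R] {f : G → R} (hf : ∀ g h, f (h * g * h⁻¹) = f g)
    {w : W P} {x y : G ⧸ P.B} (h : Rel P w x y) : Fm P f x y = uF P f w := by
  obtain ⟨g, rfl, rfl⟩ := rel_move P (rel_pt P w) h
  exact Fm_smul P hf g _ _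

/-- The parameters of the pair. -/
noncomputable def qR (s : P.S) : ℝ := (qpar P s : ℝ)

variable [Fintype (W P)] [DecidableEq (W P)] [Fintype P.S]

theorem one_le_qR (s : P.S) : 1 ≤ qR P s := by
  unfold qR
  exact_mod_cast (le_trans (by norm_num) (two_le_qpar P s) : 1 ≤ qpar P s)

theorem qR_inv : ClassInv P (qR P) := by
  intro s t w h
  obtain ⟨w, h, hup⟩ : ∃ w, σ P s * w = w * σ P t ∧ len P w < len P (σ P s * w) := by
    rcases len_σ_mul P s w with h1 | h1
    · exact ⟨w, h, by omega⟩
    · refine ⟨σ P s * w, ?_, by rw [σ_cancel]; omega⟩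
      rw [σ_cancel, h, mul_σ_cancel]
  obtain ⟨L, hL, rfl⟩ := exists_reduced P w
  have h1 : M P (σ P s) * M P (wd P L) = M P (σ P s * wd P L) := M_σ_mul P s hup.le
  rw [← M_wd P L hL] at h1
  have h2 : ((L ++ [t]).map fun r => M P (σ P r)).prod = M P (σ P s * wd P L) := by
    rw [M_wd P (L ++ [t]) ?_, wd_append, wd_cons, wd_nil, mul_one, h]
    rw [List.length_append, List.length_cons, List.length_nil, wd_append, wd_cons, wd_nil, mul_one, ← h]
    have := len_σ_mul_le P s (wd P L)
    omega
  rw [← h1, show M P (σ P s) * (L.map fun r => M P (σ P r)).prod =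
    ((s :: L).map fun r => M P (σ P r)).prod by rw [List.map_cons, List.prod_cons]] at h2
  have h3 := congrFun (congrArg (fun X => Matrix.mulVec X (1 : G ⧸ P.B → ℝ)) h2) (o P)
  simp only [M_ones, Pi.smul_apply, Pi.one_apply, smul_eq_mul, mul_one] at h3
  simp only [List.map_append, List.map_cons, List.map_nil, List.prod_append, List.prod_cons,
    List.prod_nil, mul_one] at h3
  have hne : (L.map fun r => (qpar P r : ℝ)).prod ≠ 0 := by
    refine List.prod_ne_zero fun hm => ?_
    obtain ⟨r, -, hr⟩ := List.mem_map.1 hm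
    have := two_le_qpar P r
    have hr' : qpar P r = 0 := by exact_mod_cast hr
    omega
  rw [mul_comm] at h3
  exact (mul_right_cancel₀ hne h3).symm

/-- The element of the centralizer algebra with given coordinates. -/
noncomputable def psi : (W P → ℝ) →ₗ[ℝ] Matrix (G ⧸ P.B) (G ⧸ P.B) ℝ where
  toFun x := ∑ w, x w • M P w
  map_add' x y := by simp only [Pi.add_apply, add_smul, Finset.sum_add_distrib]
  map_smul' a x := by simp only [Pi.smul_apply, smul_eq_mul, mul_smul, Finset.smul_sum, RingHom.id_apply]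

theorem psi_apply (x : W P → ℝ) {w : W P} {a b : G ⧸ P.B} (h : Rel P w a b) :
    psi P x a b = x w := by
  classical
  show (∑ v, x v • M P v) a b = x w
  rw [Matrix.sum_apply, Finset.sum_eq_single w]
  · simp [M, h]
  · intro v _ hv
    simp [M, show ¬ Rel P v a b from fun h' => hv (rel_unique P h' h)]
  · intro hn; exact absurd (Finset.mem_univ w) hn

theorem psi_e (w : W P) : psi P (e P w) = M P w := by
  show ∑ v, e P w v • M P v = _
  simp [e, Pi.single_apply]

theorem M_mul_psi (s : P.S) (x : W P → ℝ) :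
    M P (σ P s) * psi P x = psi P (Ls P (qR P) s x) := by
  conv_lhs => rw [sum_e P x]
  conv_rhs => rw [sum_e P x]
  simp only [map_sum, map_smul, Finset.mul_sum, Matrix.mul_smul]
  refine Finset.sum_congr rfl fun w _ => congrArg _ ?_
  rw [psi_e]
  by_cases h : len P w < len P (σ P s * w)
  · rw [Ls_e_up P s h, psi_e, M_σ_mul P s h.le]
  · have h1 : len P (σ P s * w) ≤ len P (σ P s * (σ P s * w)) := by rw [σ_cancel]; omega
    have h2 := M_σ_mul P s h1
    rw [σ_cancel] at h2
    rw [Ls_e_down P s h, map_add, map_smul, map_smul, psi_e, psi_e, ← h2, ← mul_assoc, M_σ_sq,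
      add_mul, smul_mul_assoc, smul_mul_assoc, one_mul]
    rfl

theorem psi_Lop (x y : W P → ℝ) :
    psi P (Lop P (qR P) x y) = psi P x * psi P y := by
  have key : ∀ w, psi P (Lop P (qR P) (e P w) y) = M P w * psi P y := by
    refine induction_left P ?_ fun u s hu ih => ?_
    · rw [Lop_e_one P (qR_inv P), M_one, one_mul]; rfl
    · rw [← Ls_e_up P (q := qR P) s hu, Lop_Ls P (qR_inv P), Module.End.mul_apply, ← M_mul_psi, ih,
        ← mul_assoc, M_σ_mul P s hu.le]
  conv_lhs => rw [sum_e P x]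
  conv_rhs => rw [sum_e P x]
  simp only [map_sum, map_smul, LinearMap.sum_apply, LinearMap.smul_apply, Finset.sum_mul,
    Matrix.smul_mul, key, psi_e]

theorem uF_mem_Z {f : G → ℝ} (hf : ∀ g h, f (h * g * h⁻¹) = f g) :
    uF P f ∈ Z P (qR P) := by
  classical
  have hF : ∀ x y, psi P (uF P f) x y = Fm P f x y := fun x y => by
    obtain ⟨w, hw⟩ := exists_rel P x y
    rw [psi_apply P _ hw, Fm_eq_uF P hf hw]
  rw [mem_Z]
  intro s
  funext w
  rw [← psi_apply P (Ls P (qR P) s _) (rel_pt P w), ← psi_apply P (Rs P (qR P) s _) (rel_pt P w),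
    ← Lop_apply_σ P (qR_inv P), psi_Lop, psi_e, ← M_mul_psi]
  simp only [Matrix.mul_apply, hF, M, Matrix.of_apply, Fm, Finset.mul_sum, Finset.sum_mul]
  rw [Finset.sum_comm]
  conv_rhs => rw [Finset.sum_comm]
  refine Finset.sum_congr rfl fun g _ => ?_
  rw [Finset.sum_eq_single (g⁻¹ • pt P w), Finset.sum_eq_single (g • o P)]
  · rw [if_pos (smul_inv_smul g _), if_pos rfl]
    have h : Rel P (σ P s) (o P) (g⁻¹ • pt P w) ↔ Rel P (σ P s) (g • o P) (pt P w) := by
      rw [← rel_smul P g, smul_inv_smul]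
    simp only [h, mul_comm]
  · intro p _ hp
    rw [if_neg (fun e => hp e.symm), zero_mul]
  · intro hn; exact absurd (Finset.mem_univ _) hn
  · intro p _ hp
    rw [if_neg (fun e => hp (eq_inv_smul_iff.2 e)), mul_zero]
  · intro hn; exact absurd (Finset.mem_univ _) hn

open Classical in
/-- The number of points moved into a given relative position. -/
noncomputable def fv (v : W P) (g : G) : ℝ := ∑ p : G ⧸ P.B, if Rel P v p (g • p) then 1 else 0

theorem fv_class (v : W P) (g h : G) : fv P v (h * g * h⁻¹) = fv P v g := by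
  classical
  refine (Fintype.sum_equiv (MulAction.toPerm h) _ _ fun p => ?_).symm
  show _ = if Rel P v (h • p) ((h * g * h⁻¹) • h • p) then (1 : ℝ) else 0
  simp only [smul_smul, inv_mul_cancel_right]
  simp only [← smul_smul, rel_smul]

open Classical in
theorem c_eq_card (w : W P) (x : G ⧸ P.B) :
    c P (qR P) w = ∑ r : G ⧸ P.B, if Rel P w x r then (1 : ℝ) else 0 := by
  have h1 : Rel P 1 x x := (rel_one P).2 rfl
  rw [c, ← psi_apply P (Lop P (qR P) (e P w) (e P w⁻¹)) h1, psi_Lop, psi_e, psi_e, Matrix.mul_apply]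
  refine Finset.sum_congr rfl fun r _ => ?_
  simp only [M, Matrix.of_apply]
  by_cases hr : Rel P w x r
  · simp [hr, rel_symm P hr]
  · simp [hr]

open Classical in
theorem count_moves {w : W P} {x y p r : G ⧸ P.B} (h : Rel P w x p) (h' : Rel P w y r) :
    c P (qR P) w * (∑ g : G, if g • x = y ∧ g • p = r then (1 : ℝ) else 0) = (Nat.card P.B : ℝ) := by
  set N := fun r' => ∑ g : G, if g • x = y ∧ g • p = r' then (1 : ℝ) else 0 with hN
  have hconst : ∀ r', Rel P w y r' → N r' = N r := by
    intro r' hr'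
    obtain ⟨k, hk1, hk2⟩ := rel_move P h' hr'
    refine (Fintype.sum_equiv (Equiv.mulLeft k) _ _ fun g => ?_).symm
    show _ = if (k * g) • x = y ∧ (k * g) • p = r' then (1 : ℝ) else 0
    have e1 : (k * g) • x = y ↔ g • x = y := by
      conv_lhs => rhs; rw [← hk1]
      rw [mul_smul, smul_left_cancel_iff]
    have e2 : (k * g) • p = r' ↔ g • p = r := by
      rw [mul_smul, ← hk2, smul_left_cancel_iff]
    simp only [e1, e2]
  have htot : ∑ r' : G ⧸ P.B, N r' = (Nat.card P.B : ℝ) := by
    rw [hN]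
    simp only
    rw [Finset.sum_comm]
    have h1 : ∀ g : G, (∑ r' : G ⧸ P.B, if g • x = y ∧ g • p = r' then (1 : ℝ) else 0) =
        if g • x = y then 1 else 0 := fun g => by
      by_cases hg : g • x = y <;> simp [hg]
    simp only [h1, Finset.sum_boole]
    congr 1
    obtain ⟨a, rfl⟩ := QuotientGroup.mk_surjective x
    obtain ⟨b, rfl⟩ := QuotientGroup.mk_surjective y
    rw [← Fintype.card_subtype, ← Nat.card_eq_fintype_card]
    refine Nat.card_congr
      { toFun := fun g => ⟨b⁻¹ * g.1 * a, ?_⟩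
        invFun := fun z => ⟨b * z.1 * a⁻¹, ?_⟩
        left_inv := fun g => Subtype.ext (by simp [mul_assoc])
        right_inv := fun z => Subtype.ext (by simp [mul_assoc]) }
    · have := g.2
      rw [MulAction.Quotient.smul_coe, smul_eq_mul, eq_comm, QuotientGroup.eq, ← mul_assoc] at this
      exact this
    · rw [MulAction.Quotient.smul_coe, smul_eq_mul, eq_comm, QuotientGroup.eq]
      simpa [mul_assoc] using z.2
  rw [← htot, c_eq_card P w y, Finset.sum_mul]
  refine Finset.sum_congr rfl fun r' _ => ?_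
  by_cases hr : Rel P w y r'
  · rw [if_pos hr, one_mul, hconst r' hr]
  · rw [if_neg hr, zero_mul, eq_comm]
    refine Finset.sum_eq_zero fun g _ => if_neg fun hg => hr ?_
    rw [← hg.1, ← hg.2, rel_smul]
    exact h

/-- The Casimir map comes from class functions of the group. -/
theorem uF_fv (v : W P) :
    uF P (fv P v) = (Nat.card P.B : ℝ) • Phi P (qR P) (e P v) := by
  classical
  funext k
  set y := pt P k
  have hR : Phi P (qR P) (e P v) k = ∑ p : G ⧸ P.B, ∑ r : G ⧸ P.B, if Rel P v p r then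
      (∑ w, if Rel P w (o P) p ∧ Rel P w y r then (c P (qR P) w)⁻¹ else 0) else 0 := by
    show (∑ w, (c P (qR P) w)⁻¹ •
      Lop P (qR P) (e P w) (Lop P (qR P) (e P v) (e P w⁻¹))) k = _
    refine (psi_apply P _ (rel_pt P k)).symm.trans ?_
    rw [map_sum, Matrix.sum_apply]
    simp only [map_smul, psi_Lop, psi_e, Matrix.smul_apply, Matrix.mul_apply, M, Matrix.of_apply,
      smul_eq_mul, Finset.mul_sum]
    rw [Finset.sum_comm]
    refine Finset.sum_congr rfl fun p _ => ?_
    rw [Finset.sum_comm]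
    refine Finset.sum_congr rfl fun r _ => ?_
    by_cases hv : Rel P v p r
    · rw [if_pos hv, if_pos hv]
      refine Finset.sum_congr rfl fun w _ => ?_
      have hsym : Rel P w⁻¹ r y ↔ Rel P w y r :=
        ⟨fun h => by simpa using rel_symm P h, rel_symm P⟩
      simp only [show pt P k = y from rfl, hsym, one_mul, ite_and]
      split_ifs <;> ring
    · simp [if_neg hv]
  rw [Pi.smul_apply, smul_eq_mul, hR, Finset.mul_sum, uF, Fm]
  have hL : ∀ g : G, (if g • o P = y then fv P v g else 0) =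
      ∑ p : G ⧸ P.B, ∑ r : G ⧸ P.B,
        if Rel P v p r then (if g • o P = y ∧ g • p = r then (1 : ℝ) else 0) else 0 := by
    intro g
    by_cases hg : g • o P = y
    · rw [if_pos hg]
      refine Finset.sum_congr rfl fun p _ => ?_
      rw [Finset.sum_eq_single (g • p)]
      · simp [hg]
      · intro r _ hr; simp [hg, Ne.symm hr]
      · intro hn; exact absurd (Finset.mem_univ _) hn
    · simp [hg]
  rw [Finset.sum_congr rfl fun g _ => hL g, Finset.sum_comm]
  refine Finset.sum_congr rfl fun p _ => ?_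
  rw [Finset.mul_sum, Finset.sum_comm]
  refine Finset.sum_congr rfl fun r _ => ?_
  by_cases hv : Rel P v p r
  · simp only [if_pos hv]
    obtain ⟨w, hw⟩ := exists_rel P (o P) p
    rw [Finset.sum_eq_single (f := fun w' => if Rel P w' (o P) p ∧ Rel P w' y r then
      (c P (qR P) w')⁻¹ else 0) w (fun w' _ hw' => if_neg fun h => hw' (rel_unique P h.1 hw))
      (fun hn => absurd (Finset.mem_univ _) hn)]
    by_cases hr : Rel P w y r
    · rw [if_pos ⟨hw, hr⟩, ← count_moves P hw hr]
      have hc := (c_pos P (qR_inv P) (fun s => lt_of_lt_of_le one_pos (one_le_qR P s)) w).ne'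
      field_simp
    · rw [if_neg (fun h => hr h.2), mul_zero]
      refine Finset.sum_eq_zero fun g _ => if_neg fun hg => hr ?_
      rw [← hg.1, ← hg.2, rel_smul]
      exact hw
  · simp [if_neg hv]

theorem Z_le_span : Z P (qR P) ≤
    Submodule.span ℝ {x | ∃ f : G → ℝ, (∀ g h, f (h * g * h⁻¹) = f g) ∧ x = uF P f} := by
  rw [← range_Phi P (qR_inv P) fun s => lt_of_lt_of_le one_pos (one_le_qR P s)]
  rintro _ ⟨x, rfl⟩
  rw [sum_e P x, map_sum]
  refine Submodule.sum_mem _ fun v _ => ?_
  rw [map_smul]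
  refine Submodule.smul_mem _ _ ?_
  have hB : (Nat.card P.B : ℝ) ≠ 0 := Nat.cast_ne_zero.2 Nat.card_pos.ne'
  have e : Phi P (qR P) (e P v) = (Nat.card P.B : ℝ)⁻¹ • uF P (fv P v) := by
    rw [uF_fv, smul_smul, inv_mul_cancel₀ hB, one_smul]
  rw [e]
  exact Submodule.smul_mem _ _ (Submodule.subset_span ⟨_, fv_class P v, rfl⟩)

/-! ### Constituents -/

open CfsgLib.CharBasics ComplexConjugate

variable [Fintype P.B] [Fintype (Cfsg.IrrCharacter G)]

theorem sum_translate (χ ψ : Cfsg.IrrCharacter G) (b : G) :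
    ∑ g : G, χ.1 (g * b) * conj (ψ.1 g) =
      if χ = ψ then (Nat.card G : ℂ) * χ.1 b / χ.1 1 else 0 := by
  classical
  have hχ := isCharacter_of_irr χ.2
  have hψ := isCharacter_of_irr ψ.2
  have h1 : χ.1 1 ≠ 0 := apply_one_ne_zero χ.2
  have hn : (Nat.card G : ℂ) ≠ 0 := Nat.cast_ne_zero.2 Nat.card_pos.ne'
  have hx : ∀ x : G, ∑ g : G, χ.1 (g * b) * conj (ψ.1 g) =
      ∑ g : G, χ.1 (x * b * x⁻¹ * g) * conj (ψ.1 g) := fun x => by
    refine Fintype.sum_equiv (MulAut.conj x).toEquiv _ _ fun g => ?_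
    show _ = χ.1 (x * b * x⁻¹ * (x * g * x⁻¹)) * conj (ψ.1 (x * g * x⁻¹))
    rw [show x * b * x⁻¹ * (x * g * x⁻¹) = x * (b * g) * x⁻¹ by group, isClassFunction hψ,
      isClassFunction hχ, apply_mul_comm hχ]
  refine mul_left_cancel₀ hn ?_
  calc (Nat.card G : ℂ) * ∑ g : G, χ.1 (g * b) * conj (ψ.1 g)
      = ∑ x : G, ∑ g : G, χ.1 (x * b * x⁻¹ * g) * conj (ψ.1 g) := by
        rw [← Finset.sum_congr rfl fun x _ => hx x, Finset.sum_const, Finset.card_univ, nsmul_eq_mul,
          Nat.card_eq_fintype_card]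
    _ = ∑ g : G, ((Nat.card G : ℂ) * χ.1 b * χ.1 g / χ.1 1) * conj (ψ.1 g) := by
        rw [Finset.sum_comm]
        refine Finset.sum_congr rfl fun g _ => ?_
        rw [← Finset.sum_mul, ← sum_conj_apply_mul χ.2 b g, mul_div_cancel_left₀ _ h1]
    _ = (Nat.card G : ℂ) * χ.1 b / χ.1 1 * ∑ g : G, χ.1 g * conj (ψ.1 g) := by
        rw [Finset.mul_sum]
        exact Finset.sum_congr rfl fun g _ => by ring
    _ = _ := by
        rw [sum_mul_conj χ ψ]
        split_ifs <;> ring

open Classical in
theorem Fm_coset (f : G → ℂ) (g : G) :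
    Fm P f (o P) (g : G ⧸ P.B) = ∑ b : P.B, f (g * b) := by
  rw [Fm, ← Finset.sum_filter]
  refine Finset.sum_bij' (fun h hh => ⟨g⁻¹ * h, ?_⟩) (fun b _ => g * (b : G)) (fun h hh => Finset.mem_univ _)
    (fun b _ => ?_) (fun h hh => mul_inv_cancel_left g h) (fun b _ => Subtype.ext (inv_mul_cancel_left g _))
    (fun h hh => by rw [mul_inv_cancel_left])
  · have h1 := (Finset.mem_filter.1 hh).2
    rw [o, MulAction.Quotient.smul_coe, smul_eq_mul, mul_one, eq_comm, QuotientGroup.eq] at h1
    exact h1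
  · refine Finset.mem_filter.2 ⟨Finset.mem_univ _, ?_⟩
    rw [o, MulAction.Quotient.smul_coe, smul_eq_mul, mul_one, eq_comm, QuotientGroup.eq]
    simp

/-- The sum of a character over the Borel subgroup. -/
noncomputable def bsum (χ : Cfsg.IrrCharacter G) : ℂ := ∑ b : P.B, χ.1 b

theorem uF_eq_coset {χ : Cfsg.IrrCharacter G} {w : W P} {g : G}
    (h : Rel P w (o P) (g : G ⧸ P.B)) : uF P χ.1 w = ∑ b : P.B, χ.1 (g * b) := by
  rw [← Fm_coset P, ← Fm_eq_uF P (isClassFunction (isCharacter_of_irr χ.2)) h]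

theorem linearIndependent_uF [Fintype {χ : Cfsg.IrrCharacter G // bsum P χ ≠ 0}] :
    LinearIndependent ℂ fun χ : {χ : Cfsg.IrrCharacter G // bsum P χ ≠ 0} => uF P χ.1.1 := by
  classical
  rw [Fintype.linearIndependent_iff]
  intro a ha ψ
  have h0 : ∀ g : G, ∑ χ, a χ * ∑ b : P.B, χ.1.1 (g * b) = 0 := fun g => by
    obtain ⟨w, hw⟩ := exists_rel P (o P) (g : G ⧸ P.B)
    have := congrFun ha w
    rw [Finset.sum_apply] at this
    simpa only [Pi.smul_apply, smul_eq_mul, uF_eq_coset P hw, Pi.zero_apply] using this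
  have h1 : ∑ g : G, (∑ χ, a χ * ∑ b : P.B, χ.1.1 (g * b)) * conj (ψ.1.1 g) = 0 := by simp [h0]
  have h2 : a ψ * ((Nat.card G : ℂ) / ψ.1.1 1 * bsum P ψ.1) = 0 := by
    refine Eq.trans ?_ h1
    simp only [Finset.sum_mul, mul_assoc, Finset.mul_sum]
    rw [Finset.sum_comm, Finset.sum_eq_single (f := fun χ =>
      ∑ g : G, ∑ b : P.B, a χ * (χ.1.1 (g * b) * conj (ψ.1.1 g))) ψ]
    · rw [Finset.sum_comm, bsum, Finset.mul_sum, Finset.mul_sum]
      refine Finset.sum_congr rfl fun b _ => ?_
      rw [← Finset.mul_sum, sum_translate, if_pos rfl]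
      ring
    · intro χ _ hχ
      rw [Finset.sum_comm]
      refine Finset.sum_eq_zero fun b _ => ?_
      rw [← Finset.mul_sum, sum_translate, if_neg fun e => hχ (Subtype.ext e), mul_zero]
    · intro hn; exact absurd (Finset.mem_univ _) hn
  refine (mul_eq_zero.1 h2).resolve_right (mul_ne_zero (div_ne_zero ?_ (apply_one_ne_zero ψ.1.2)) ψ.2)
  exact Nat.cast_ne_zero.2 Nat.card_pos.ne'

theorem uF_eq_zero {χ : Cfsg.IrrCharacter G} (h : bsum P χ = 0) : uF P χ.1 = 0 := by
  classical
  set F : G → ℂ := fun g => ∑ b : P.B, χ.1 (g * b) with hF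
  have hinner : ∑ g : G, F g * conj (F g) = 0 := by
    simp only [hF, map_sum, Finset.sum_mul, Finset.mul_sum]
    rw [Finset.sum_comm]
    refine Finset.sum_eq_zero fun b _ => ?_
    rw [Finset.sum_comm]
    have e : ∀ b' : P.B, ∑ g : G, χ.1 (g * b') * conj (χ.1 (g * b)) =
        (Nat.card G : ℂ) / χ.1 1 * χ.1 ((b : G)⁻¹ * b') := fun b' => by
      rw [Fintype.sum_equiv (Equiv.mulRight (b : G)) _
        (fun g => χ.1 (g * ((b : G)⁻¹ * b')) * conj (χ.1 g)) (fun g => ?_), sum_translate, if_pos rfl]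
      · ring
      · simp [mul_assoc]
    rw [Finset.sum_congr rfl fun b' _ => e b', ← Finset.mul_sum]
    have e2 : ∑ b' : P.B, χ.1 ((b : G)⁻¹ * b') = bsum P χ :=
      Fintype.sum_equiv (Equiv.mulLeft b⁻¹) _ _ fun b' => rfl
    rw [e2, h, mul_zero]
  have hzero : ∀ g, F g = 0 := by
    have h' : ∑ g : G, Complex.normSq (F g) = 0 := by
      have := congrArg Complex.re hinner
      simp only [Complex.mul_conj, Complex.re_sum, Complex.ofReal_re, Complex.zero_re] at this
      exact this
    intro g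
    exact Complex.normSq_eq_zero.1
      ((Finset.sum_eq_zero_iff_of_nonneg fun g _ => Complex.normSq_nonneg _).1 h' g (Finset.mem_univ g))
  funext w
  exact (uF_eq_coset P (g := (cell_nonempty P w).choose) (rel_pt P w)).trans (hzero _)

theorem perm_eq_sum (g : G) :
    Cfsg.fixedPointCharacter P.B g = ∑ x : G ⧸ P.B, @ite ℂ (g • x = x) (Classical.dec _) 1 0 := by
  classical
  rw [Cfsg.fixedPointCharacter, Finset.sum_boole, Nat.card_eq_fintype_card]
  congr 1
  rw [← Fintype.card_subtype]
  exact Fintype.card_congr (Equiv.subtypeEquivRight fun x => Iff.rfl)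

theorem classInner_perm (χ : Cfsg.IrrCharacter G) :
    Cfsg.classInner (Cfsg.fixedPointCharacter P.B) χ.1 =
      (Nat.card G : ℂ)⁻¹ * (Nat.card (G ⧸ P.B) * conj (bsum P χ)) := by
  classical
  rw [classInner_eq]
  congr 1
  have hc : ∀ x : G ⧸ P.B, (∑ g : G, if g • x = x then conj (χ.1 g) else 0) = conj (bsum P χ) := by
    intro x
    obtain ⟨k, rfl⟩ := QuotientGroup.mk_surjective x
    have h1 := Fm_smul P (f := fun g => conj (χ.1 g))
      (fun g h => congrArg conj (isClassFunction (isCharacter_of_irr χ.2) g h)) k (o P) (o P)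
    have e : k • o P = (k : G ⧸ P.B) := by
      rw [o, MulAction.Quotient.smul_coe, smul_eq_mul, mul_one]
    rw [e] at h1
    refine h1.trans ?_
    show Fm P _ (o P) ((1 : G) : G ⧸ P.B) = _
    rw [Fm_coset, bsum, map_sum]
    simp
  simp only [perm_eq_sum, Finset.sum_mul, ite_mul, one_mul, zero_mul]
  rw [Finset.sum_comm, Finset.sum_congr rfl fun x _ => hc x, Finset.sum_const, Finset.card_univ,
    nsmul_eq_mul, Nat.card_eq_fintype_card]

theorem constituent_iff (χ : Cfsg.IrrCharacter G) :
    (∃ φ : G → ℂ, Cfsg.IsCharacter G φ ∧ Cfsg.fixedPointCharacter P.B = (χ : G → ℂ) + φ) ↔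
      bsum P χ ≠ 0 := by
  classical
  have h0 : bsum P χ = 0 ↔ Cfsg.classInner (Cfsg.fixedPointCharacter P.B) χ.1 = 0 := by
    rw [classInner_perm]
    simp [Nat.card_pos.ne']
  rw [Ne, h0]
  constructor
  · rintro ⟨φ, hφ, e⟩ hz
    obtain ⟨n, hn⟩ := classInner_character_nat hφ χ
    rw [e, classInner_add_left, classInner_self χ.2, hn] at hz
    exact Nat.succ_ne_zero n (by exact_mod_cast (by rw [← hz]; push_cast; ring : ((n + 1 : ℕ) : ℂ) = 0))
  · intro hne
    have hind : Cfsg.fixedPointCharacter P.B = Cfsg.indFun P.B (fun _ => (1 : ℂ)) := funext fun g =>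
      (CfsgLib.IndFun.indFun_const_one_eq_card_fixedBy P.B g).symm
    have hπ : Cfsg.IsCharacter G (Cfsg.fixedPointCharacter P.B) := by
      rw [hind]
      exact isCharacter_indFun P.B (isCharacter_of_irr isIrrCharacter_one)
    obtain ⟨r, f, hf, e⟩ := exists_decomp hπ
    rw [e, classInner_sum_left] at hne
    obtain ⟨i, -, hi⟩ := Finset.exists_ne_zero_of_sum_ne_zero hne
    have hi' : f i = χ.1 := by
      by_contra hc
      exact hi (classInner_ne (hf i) χ.2 hc)
    refine ⟨∑ j ∈ Finset.univ.erase i, f j, isCharacter_sum _ _ fun j _ => isCharacter_of_irr (hf j), ?_⟩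
    rw [e, ← hi', Finset.add_sum_erase _ _ (Finset.mem_univ i)]

/-- Coordinatewise embedding of the reals. -/
def toC : (W P → ℝ) →ₗ[ℝ] (W P → ℂ) where
  toFun x w := (x w : ℂ)
  map_add' x y := funext fun w => by simp
  map_smul' a x := funext fun w => by simp

/-- The number of constituents of the permutation character is the dimension of the centre. -/
theorem card_constituents :
    Nat.card {χ : Cfsg.IrrCharacter G // ∃ φ : G → ℂ, Cfsg.IsCharacter G φ ∧
      Cfsg.fixedPointCharacter P.B = (χ : G → ℂ) + φ} = Nat.card (ConjClasses (W P)) := by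
  classical
  rw [Nat.card_congr (Equiv.subtypeEquivRight fun χ => constituent_iff P χ),
    ← finrank_Z_eq P (qR_inv P) (one_le_qR P)]
  set z := Module.finBasis ℝ (Z P (qR P))
  set bc : Fin (Module.finrank ℝ (Z P (qR P))) → (W P → ℂ) := fun i => toC P (z i : W P → ℝ) with hbc
  have hbl : LinearIndependent ℂ bc := by
    rw [Fintype.linearIndependent_iff]
    intro a ha i
    have hli : LinearIndependent ℝ fun i => (z i : W P → ℝ) :=
      z.linearIndependent.map' (Z P (qR P)).subtype (Submodule.ker_subtype _)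
    have hre : ∑ j, (a j).re • (z j : W P → ℝ) = 0 := funext fun w => by
      have := congrArg Complex.re (congrFun ha w)
      simpa [hbc, toC, Finset.sum_apply, Complex.mul_re] using this
    have him : ∑ j, (a j).im • (z j : W P → ℝ) = 0 := funext fun w => by
      have := congrArg Complex.im (congrFun ha w)
      simpa [hbc, toC, Finset.sum_apply, Complex.mul_im] using this
    exact Complex.ext (Fintype.linearIndependent_iff.1 hli _ hre i)
      (Fintype.linearIndependent_iff.1 hli _ him i)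
  have hZ : ∀ x ∈ Z P (qR P), toC P x ∈ Submodule.span ℂ (Set.range bc) := fun x hx => by
    have e : x = ∑ i, z.repr ⟨x, hx⟩ i • (z i : W P → ℝ) := by
      have := congrArg (Z P (qR P)).subtype (z.sum_repr ⟨x, hx⟩)
      rw [map_sum] at this
      exact this.symm
    rw [e, map_sum]
    refine Submodule.sum_mem _ fun i _ => ?_
    rw [map_smul, ← algebraMap_smul ℂ (z.repr ⟨x, hx⟩ i)]
    exact Submodule.smul_mem _ _ (Submodule.subset_span ⟨i, rfl⟩)
  set v : {χ : Cfsg.IrrCharacter G // bsum P χ ≠ 0} → (W P → ℂ) := fun χ => uF P χ.1.1 with hv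
  have hclass : ∀ f : G → ℝ, (∀ g h, f (h * g * h⁻¹) = f g) →
      toC P (uF P f) ∈ Submodule.span ℂ (Set.range v) := by
    intro f hf
    have hfc : Cfsg.IsClassFunction G fun g => (f g : ℂ) := fun g h => congrArg _ (hf g h)
    have e := classFun_expand hfc
    have e1 : toC P (uF P f) = uF P fun g => (f g : ℂ) := funext fun w => by
      show ((uF P f w : ℝ) : ℂ) = _
      simp only [uF, Fm, Complex.ofReal_sum]
      exact Finset.sum_congr rfl fun g _ => by split_ifs <;> simp
    have e2 : uF P (fun g => (f g : ℂ)) = ∑ χ : Cfsg.IrrCharacter G,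
        Cfsg.classInner (fun g => (f g : ℂ)) χ.1 • uF P χ.1 := funext fun w => by
      conv_lhs => rw [e]
      simp only [uF, Fm, Finset.sum_apply, Pi.smul_apply, smul_eq_mul, Finset.mul_sum]
      rw [Finset.sum_comm]
      refine Finset.sum_congr rfl fun g _ => ?_
      split_ifs <;> simp
    rw [e1, e2]
    refine Submodule.sum_mem _ fun χ _ => Submodule.smul_mem _ _ ?_
    by_cases h : bsum P χ = 0
    · rw [uF_eq_zero P h]; exact Submodule.zero_mem _
    · exact Submodule.subset_span ⟨⟨χ, h⟩, rfl⟩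
  have hspan : Submodule.span ℂ (Set.range v) = Submodule.span ℂ (Set.range bc) := by
    refine le_antisymm (Submodule.span_le.2 ?_) (Submodule.span_le.2 ?_)
    · rintro _ ⟨χ, rfl⟩
      have hc := isClassFunction (isCharacter_of_irr χ.1.2)
      have e : v χ = toC P (uF P fun g => (χ.1.1 g).re) +
          Complex.I • toC P (uF P fun g => (χ.1.1 g).im) := funext fun w => by
        show uF P χ.1.1 w = ((uF P (fun g => (χ.1.1 g).re) w : ℝ) : ℂ) +
          Complex.I * ((uF P (fun g => (χ.1.1 g).im) w : ℝ) : ℂ)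
        simp only [uF, Fm, Complex.ofReal_sum, Finset.mul_sum, ← Finset.sum_add_distrib]
        refine Finset.sum_congr rfl fun g _ => ?_
        split_ifs
        · rw [mul_comm, Complex.re_add_im]
        · simp
      rw [e]
      refine Submodule.add_mem _ (hZ _ (uF_mem_Z P fun g h => ?_))
        (Submodule.smul_mem _ _ (hZ _ (uF_mem_Z P fun g h => ?_))) <;> simp only [hc g h]
    · rintro _ ⟨i, rfl⟩
      have hmem := Z_le_span P (z i).2
      show toC P (z i : W P → ℝ) ∈ Submodule.span ℂ (Set.range v)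
      generalize (z i : W P → ℝ) = x at hmem ⊢
      induction hmem using Submodule.span_induction with
      | mem x hx => obtain ⟨f, hf, rfl⟩ := hx; exact hclass f hf
      | zero => rw [map_zero]; exact Submodule.zero_mem _
      | add x y _ _ hx hy => rw [map_add]; exact Submodule.add_mem _ hx hy
      | smul a x _ hx =>
        rw [map_smul, ← algebraMap_smul ℂ a]
        exact Submodule.smul_mem _ _ hx
  have h1 : Module.finrank ℂ (Submodule.span ℂ (Set.range v)) = _ :=
    finrank_span_eq_card (linearIndependent_uF P)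
  have h2 : Module.finrank ℂ (Submodule.span ℂ (Set.range bc)) = _ := finrank_span_eq_card hbl
  rw [hspan, h2, Fintype.card_fin] at h1
  rw [Nat.card_eq_fintype_card, ← h1]

end CfsgLib.HeckeCenter
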